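import Cfsg.Agent.Bt.Xc2

/-! Sections `C(A) / A Z` of a group with centre of exponent two. -/

set_option autoImplicit false

namespace CF.Bt

open CF.Comp MulAction Subgroup

section abs

variable {G : Type*} [Group G]

instance normal_zpowers_cent (a : G) : ((zpowers a).subgroupOf (centralizer {a})).Normal :=
  ⟨fun x hx g => by
    obtain ⟨k, hk⟩ := hx
    have : (g : G) * x = x * g :=
      (show a ^ k = x from hk) ▸ (Commute.zpow_right (mem_centralizer_singleton_iff.1 g.2) k).eq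
    show (g : G) * x * (g : G)⁻¹ ∈ zpowers a
    rw [this, mul_inv_cancel_right]
    exact ⟨k, hk⟩⟩

/-- the centraliser of `a` modulo `a` -/
abbrev CQ (a : G) := centralizer {a} ⧸ (zpowers a).subgroupOf (centralizer {a})

theorem sect (hZ : ∀ z ∈ center G, z * z = 1) {a : G ⧸ center G} {k : ℕ} (hp : (2 * k + 1).Prime)
    (ha : orderOf a = 2 * k + 1) : ∃ A : Subgroup G, Nat.card A = 2 * k + 1 ∧
      ∃ _ : ((A ⊔ center G).subgroupOf (centralizer (A : Set G))).Normal,
        Nonempty (CQ a ≃* centralizer (A : Set G) ⧸ (A ⊔ center G).subgroupOf (centralizer (A : Set G))) := by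
  obtain ⟨x, rfl⟩ := QuotientGroup.mk_surjective a
  have h1 : x ^ (2 * k + 1) ∈ center G := (QuotientGroup.eq_one_iff _).1 (by
    rw [QuotientGroup.mk_pow, ← ha, pow_orderOf_eq_one])
  set b := x ^ (2 * k + 1) * x with hb
  have h2 : (b : G ⧸ center G) = x := by
    rw [hb, QuotientGroup.mk_mul, (QuotientGroup.eq_one_iff _).2 h1, one_mul]
  have h3 : b ^ (2 * k + 1) = 1 := by
    rw [hb, ← pow_succ, ← pow_mul, mul_comm, pow_mul, show 2 * k + 1 + 1 = 2 * (k + 1) by ring, pow_mul, sq, hZ _ h1,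
      one_pow]
  have := Fact.mk hp
  have h4 : orderOf b = 2 * k + 1 := orderOf_eq_prime h3 fun e => hp.one_lt.ne' (by
    rw [← ha, ← h2, e, QuotientGroup.mk_one, orderOf_one])
  rw [← h2]
  have h5 : ∀ g : G, g ∈ centralizer (zpowers b : Set G) ↔ (g : G ⧸ center G) ∈ centralizer {(b : G ⧸ center G)} := by
    intro g
    rw [mem_centralizer_singleton_iff]
    refine ⟨fun h => congrArg QuotientGroup.mk (h b (mem_zpowers b)).symm, fun h => ?_⟩
    have h6 : (g * b)⁻¹ * (b * g) ∈ center G := QuotientGroup.eq.1 h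
    set z := (g * b)⁻¹ * (b * g) with hz
    have h7 : g⁻¹ * b * g = b * z := by
      calc g⁻¹ * b * g = b * ((g * b)⁻¹ * (b * g)) := by group
        _ = b * z := rfl
    have h8 : z = 1 := by
      have := congrArg (· ^ (2 * k + 1)) h7
      have h9 : (g⁻¹ * b * g) ^ (2 * k + 1) = 1 := by
        simpa using (conj_pow (a := g⁻¹) (b := b) (i := 2 * k + 1)).trans (by rw [h3]; simp)
      rwa [h9, (Commute.mul_pow (mem_center_iff.1 h6 b)), h3, one_mul, pow_succ, pow_mul, sq, hZ _ h6, one_pow,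
        one_mul, eq_comm] at this
    rintro _ ⟨j, rfl⟩
    exact (Commute.zpow_left (inv_mul_eq_one.1 (hz ▸ h8)).symm j).eq
  let φ : centralizer (zpowers b : Set G) →* CQ (b : G ⧸ center G) := (QuotientGroup.mk' _).comp
    (((QuotientGroup.mk' _).comp (Subgroup.subtype _)).codRestrict _ fun g => (h5 g).1 g.2)
  have h6 : φ.ker = (zpowers b ⊔ center G).subgroupOf _ := by
    ext g
    refine (QuotientGroup.eq_one_iff _).trans ?_
    show (g : G ⧸ center G) ∈ zpowers (QuotientGroup.mk' (center G) b) ↔ (g : G) ∈ zpowers b ⊔ center G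
    rw [← MonoidHom.map_zpowers]
    exact (mem_comap (f := QuotientGroup.mk' (center G))).symm.trans (by
      rw [comap_map_eq, QuotientGroup.ker_mk'])
  have h7 : Function.Surjective φ := fun y => by
    obtain ⟨⟨y, hy⟩, rfl⟩ := QuotientGroup.mk_surjective y
    obtain ⟨g, rfl⟩ := QuotientGroup.mk_surjective y
    exact ⟨⟨g, (h5 g).2 hy⟩, rfl⟩
  have h8 : ((zpowers b ⊔ center G).subgroupOf (centralizer (zpowers b : Set G))).Normal := h6 ▸ φ.normal_ker
  exact ⟨zpowers b, (Nat.card_zpowers b).trans h4, h8,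
    ⟨(QuotientGroup.quotientKerEquivOfSurjective φ h7).symm.trans (QuotientGroup.quotientMulEquivOfEq h6)⟩⟩

theorem equiv_CQ [Finite G] {a : G} {S : Type*} [Group S] [IsSimpleGroup S] {ψ : S →* CQ a} {x : S} (h : ψ x ≠ 1)
    (hc : Nat.card (centralizer {a}) ≤ Nat.card S * orderOf a) : Nonempty (S ≃* CQ a) := by
  have h1 : Function.Injective ψ := (MonoidHom.ker_eq_bot_iff ψ).1 (ψ.normal_ker.eq_bot_or_eq_top.resolve_right
    fun e => h (show x ∈ ψ.ker from e ▸ trivial))
  have := Finite.of_injective ψ h1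
  refine ⟨MulEquiv.ofBijective ψ (h1.bijective_of_nat_card_le ?_)⟩
  rw [card_eq_card_quotient_mul_card_subgroup ((zpowers a).subgroupOf (centralizer {a})), card_sub_of
    (zpowers_le.2 (mem_centralizer_singleton_iff.2 rfl)), Nat.card_zpowers] at hc
  exact Nat.le_of_mul_le_mul_right hc (orderOf_pos a)

theorem hom_of_bound [Finite G] {K : Type*} [Group K] {g : ℕ → G} {k : ℕ → K} {hs : List (List ℕ)}
    (top : clo g hs = ⊤) (hb : Bound (fun i => (g i, k i)) hs (Nat.card G)) :
    ∃ ψ : G →* K, ∀ u ∈ hs, ψ (ev g u) = ev k u := by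
  have := hb.1
  let φ := (MonoidHom.fst G K).comp (clo (fun i => (g i, k i)) hs).subtype
  have h1 : Function.Surjective φ := MonoidHom.range_eq_top.1 (by
    rw [MonoidHom.range_comp, range_subtype, map_clo]; exact top)
  let e := MulEquiv.ofBijective φ (h1.bijective_of_nat_card_le hb.2)
  refine ⟨((MonoidHom.snd G K).comp (Subgroup.subtype _)).comp e.symm.toMonoidHom, fun u hu => ?_⟩
  have : e.symm (ev g u) = ⟨_, ev_mem_clo _ hu⟩ := e.symm_apply_eq.2 (map_ev (MonoidHom.fst G K) (fun i => (g i, k i)) u).symm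
  show (e.symm (ev g u)).1.2 = _
  rw [this]
  exact map_ev (MonoidHom.snd G K) (fun i => (g i, k i)) u

end abs

variable {G Ω : Type*} [Group G] [MulAction G Ω] {n : ℕ} {D : Dom Ω n} {nets : List Net} {f : ℕ → G}

/-- the words commute with `a` and satisfy the relations modulo `a` -/
noncomputable def cqT (ap : ℕ → ℕ → ℕ) (n : ℕ) (c : List Lvl) (b j : ℕ) (a : List ℕ) (ws rels : List (List ℕ))
    (es : List ℕ) : Bool :=
  lall (fun t => t) [commT ap c ws [a], Nat.beq (llen es) (llen rels),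
    allFrom (fun i => eqT ap c (subst ws (nth [] rels i)) (wpow a (nth (nat_lit 0) es i))) (nat_lit 0) (llen rels),
    neT ap n b (lapp (nth [] ws 0) (nth [] ws j)) (lapp (nth [] ws j) (nth [] ws 0))]

theorem cqT_spec {c : List Lvl} (hE : Exact D nets f c ⊤) {ap : ℕ → ℕ → ℕ} (hP : Pf D ap f) {b j : ℕ} {a : List ℕ}
    {ws rels : List (List ℕ)} {es : List ℕ} (h : cqT ap n c b j a ws rels es = true) :
    ∃ k : ℕ → CQ (ev f a), (∀ r ∈ rels, ev k r = 1) ∧ (∀ i, ws.length ≤ i → k i = 1) ∧ k 0 ≠ 1 := by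
  simp only [cqT, lall_iff (f := fun t => t), List.mem_cons, List.not_mem_nil, or_false,
    forall_eq_or_imp, forall_eq, beq_iff, allFrom_zero, llen_eq] at h
  obtain ⟨h1, -, h2, h3⟩ := h
  have hm : ∀ i, evs f ws i ∈ centralizer {ev f a} := evs_mem fun w hw =>
    mem_centralizer_singleton_iff.2 (hP.comm hE h1 w hw a (by simp))
  refine ⟨fun i => QuotientGroup.mk' _ (sub _ hm i), fun r hr => ?_, fun i hi => ?_, fun e => ?_⟩
  · obtain ⟨i, hi, rfl⟩ := exists_nth_of_mem [] hr
    rw [← map_ev]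
    refine (QuotientGroup.eq_one_iff _).2 (mem_subgroupOf.2 ?_)
    rw [coe_ev_sub, ← show ev f (subst ws _) = ev (evs f ws) _ from ev_subst f ws _, hP.eq hE (h2 i hi), ev_wpow]
    exact pow_mem (mem_zpowers _) _
  · exact (congrArg _ (Subtype.ext (evs_eq_one hi))).trans (map_one _)
  · obtain ⟨l, hj⟩ := (QuotientGroup.eq_one_iff _).1 e
    refine hP.ne h3 ?_
    rw [ev_lapp, ev_lapp, show ev f (nth [] ws 0) = ev f a ^ l from hj.symm]
    exact (Commute.zpow_right (mem_centralizer_singleton_iff.1 (hm j)) l).eq.symm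

end CF.Bt
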